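import Mathlib
import Cfsg.Agent.H1.Coprime

set_option autoImplicit false

/-! Half-transitive groups of automorphisms (Isaacs--Passman), internal form (helper20). -/

namespace Cfsg.Agent.H20.HalfTrans

open Subgroup

theorem card_dvd_of_stab {Γ Y : Type*} [Group Γ] [Finite Γ] [MulAction Γ Y] [Finite Y] (c : ℕ)
    (h : ∀ y : Y, Nat.card (MulAction.stabilizer Γ y) = c) : Nat.card Γ ∣ c * Nat.card Y := by
  classical
  have e1 : (Σ y : Y, MulAction.stabilizer Γ y) ≃ (Σ g : Γ, MulAction.fixedBy Y g) :=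
    { toFun := fun p => ⟨p.2.1, ⟨p.1, p.2.2⟩⟩
      invFun := fun p => ⟨p.2.1, ⟨p.1, p.2.2⟩⟩
      left_inv := fun _ => rfl
      right_inv := fun _ => rfl }
  have e2 := e1.trans (MulAction.sigmaFixedByEquivOrbitsProdGroup Γ Y)
  have h1 := Nat.card_congr e2
  rw [Nat.card_prod] at h1
  haveI := Fintype.ofFinite Y
  rw [Nat.card_sigma] at h1
  simp only [h] at h1
  rw [Finset.sum_const, Finset.card_univ, smul_eq_mul, ← Nat.card_eq_fintype_card] at h1
  exact ⟨_, by rw [mul_comm c, h1, mul_comm]⟩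

variable {G : Type*} [Group G]

/-- conjugation action of a subgroup on an invariant subset -/
def conjSet (L : Subgroup G) (S : Set G) (hS : ∀ l ∈ L, ∀ s ∈ S, l * s * l⁻¹ ∈ S) :
    MulAction L S where
  smul l s := ⟨l * s * l⁻¹, hS l l.2 s s.2⟩
  one_smul s := Subtype.ext (by
    show ((1 : L) : G) * s * ((1 : L) : G)⁻¹ = s
    simp)
  mul_smul a b s := Subtype.ext (by
    show ((a * b : L) : G) * s * ((a * b : L) : G)⁻¹ = a * (b * s * (b : G)⁻¹) * (a : G)⁻¹
    simp [mul_assoc])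

theorem conj_count [Finite G] (L : Subgroup G) (S : Set G)
    (hS : ∀ l ∈ L, ∀ s ∈ S, l * s * l⁻¹ ∈ S) (c : ℕ)
    (hc : ∀ s ∈ S, Nat.card ↥(L ⊓ centralizer {s}) = c) : Nat.card L ∣ c * Nat.card S := by
  letI := conjSet L S hS
  apply card_dvd_of_stab
  intro s
  rw [← hc s s.2]
  have e : MulAction.stabilizer ↥L s = (L ⊓ centralizer {(s : G)}).subgroupOf L := by
    ext l
    rw [MulAction.mem_stabilizer_iff, mem_subgroupOf, mem_inf, mem_centralizer_iff]
    constructor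
    · intro h
      have h' : (l : G) * s * (l : G)⁻¹ = s := congrArg Subtype.val h
      refine ⟨l.2, ?_⟩
      intro t ht
      rw [Set.mem_singleton_iff] at ht
      subst ht
      rw [mul_inv_eq_iff_eq_mul] at h'
      exact h'.symm
    · rintro ⟨_, h⟩
      apply Subtype.ext
      show (l : G) * s * (l : G)⁻¹ = s
      rw [mul_inv_eq_iff_eq_mul]
      exact (h s rfl).symm
  rw [e, Cfsg.H1.card_subgroupOf_of_le inf_le_left]

/-- the setwise normaliser in `H` of a subset. -/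
def setNorm (H : Subgroup G) (S : Set G) : Subgroup G where
  carrier := {h | h ∈ H ∧ ∀ t, t ∈ S ↔ h * t * h⁻¹ ∈ S}
  one_mem' := ⟨one_mem _, fun t => by simp⟩
  mul_mem' := by
    rintro a b ⟨ha, ha'⟩ ⟨hb, hb'⟩
    refine ⟨mul_mem ha hb, fun t => ?_⟩
    rw [hb' t, ha' (b * t * b⁻¹)]
    have e : a * (b * t * b⁻¹) * a⁻¹ = a * b * t * (a * b)⁻¹ := by group
    rw [e]
  inv_mem' := by
    rintro a ⟨ha, ha'⟩
    refine ⟨inv_mem ha, fun t => ?_⟩
    rw [ha' (a⁻¹ * t * a⁻¹⁻¹)]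
    have e : a * (a⁻¹ * t * a⁻¹⁻¹) * a⁻¹ = t := by group
    rw [e]

theorem lemU [Finite G] (H : Subgroup G) (c k : ℕ) (S : Set G)
    (hc : ∀ s ∈ S, Nat.card ↥(H ⊓ centralizer {s}) = c)
    (hfix : ∀ s ∈ S, ∀ h ∈ H, h * s = s * h → ∀ t ∈ S, h * t * h⁻¹ ∈ S)
    (hcop : Nat.Coprime (Nat.card S) k) (hk : Nat.card H = c * k) :
    ∀ s ∈ S, ∀ t ∈ S, ∀ h ∈ H, h * s = s * h → h * t = t * h := by
  intro s hs t ht h hh hcomm
  have hLH : setNorm H S ≤ H := fun x hx => hx.1
  have hCL : ∀ u ∈ S, H ⊓ centralizer {u} ≤ setNorm H S := by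
    intro u hu x hx
    have hxu : x * u = u * x := (mem_centralizer_iff.1 hx.2 u rfl).symm
    refine ⟨hx.1, fun v => ⟨fun hv => hfix u hu x hx.1 hxu v hv, fun hv => ?_⟩⟩
    have hxu' : x⁻¹ * u = u * x⁻¹ := (Commute.inv_left (show Commute x u from hxu)).eq
    have := hfix u hu x⁻¹ (inv_mem hx.1) hxu' _ hv
    have e : x⁻¹ * (x * v * x⁻¹) * x⁻¹⁻¹ = v := by group
    rwa [e] at this
  have hCeq : ∀ u ∈ S, setNorm H S ⊓ centralizer {u} = H ⊓ centralizer {u} := by
    intro u hu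
    apply le_antisymm (inf_le_inf_right _ hLH)
    exact le_inf (hCL u hu) inf_le_right
  have hcount : Nat.card (setNorm H S) ∣ c * Nat.card S := by
    apply conj_count
    · intro l hl v hv
      exact (hl.2 v).1 hv
    · intro u hu
      rw [hCeq u hu, hc u hu]
  have hcpos : 0 < c := by rw [← hc s hs]; exact Nat.card_pos
  obtain ⟨m, hm⟩ : c ∣ Nat.card (setNorm H S) := by
    rw [← hc s hs]; exact card_dvd_of_le (hCL s hs)
  have hm1 : m ∣ Nat.card S := by
    rw [hm] at hcount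
    exact Nat.dvd_of_mul_dvd_mul_left hcpos hcount
  have hm2 : m ∣ k := by
    have := card_dvd_of_le hLH
    rw [hm, hk] at this
    exact Nat.dvd_of_mul_dvd_mul_left hcpos this
  have hm3 : m = 1 := Nat.eq_one_of_dvd_coprimes hcop hm1 hm2
  rw [hm3, mul_one] at hm
  have hLt : H ⊓ centralizer {t} = setNorm H S :=
    eq_of_le_of_card_ge (hCL t ht) (by rw [hm, hc t ht])
  have hhL : h ∈ setNorm H S :=
    hCL s hs (mem_inf.2 ⟨hh, by
      rw [mem_centralizer_iff]
      intro u hu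
      rw [Set.mem_singleton_iff] at hu
      subst hu
      exact hcomm.symm⟩)
  rw [← hLt] at hhL
  exact (mem_centralizer_iff.1 hhL.2 t rfl).symm

theorem mem_R {H : Subgroup G} {x h : G} :
    h ∈ H ⊓ centralizer {x} ↔ h ∈ H ∧ h * x = x * h := by
  rw [mem_inf, mem_centralizer_iff]
  constructor
  · rintro ⟨h1, h2⟩; exact ⟨h1, (h2 x rfl).symm⟩
  · rintro ⟨h1, h2⟩
    refine ⟨h1, fun u hu => ?_⟩
    rw [Set.mem_singleton_iff] at hu
    subst hu
    exact h2.symm

theorem main [Finite G] (N H : Subgroup G) [hN : N.Normal]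
    (hG : ∀ g : G, ∃ n ∈ N, ∃ h ∈ H, g = n * h)
    (hc : ∀ x ∈ N, x ≠ 1 → ∀ y ∈ N, y ≠ 1 →
      Nat.card ↥(H ⊓ centralizer {x}) = Nat.card ↥(H ⊓ centralizer {y}))
    (hfaith : ∀ h ∈ H, (∀ n ∈ N, h * n = n * h) → h = 1)
    (h0 x0 : G) (hh0 : h0 ∈ H) (hh1 : h0 ≠ 1) (hx0 : x0 ∈ N) (hx1 : x0 ≠ 1)
    (hcomm0 : h0 * x0 = x0 * h0) :
    (∃ p : ℕ, p.Prime ∧ IsMulCommutative N ∧ ∀ x ∈ N, x ^ p = 1) ∧
      ∀ M : Subgroup G, M.Normal → M ≠ ⊥ → N ≤ M := by
  classical
  obtain ⟨c, hcdef⟩ : ∃ c, c = Nat.card ↥(H ⊓ centralizer {x0}) := ⟨_, rfl⟩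
  have hc' : ∀ x ∈ N, x ≠ 1 → Nat.card ↥(H ⊓ centralizer {x}) = c := fun x hx hx1' => by
    rw [hcdef]; exact hc x hx hx1' x0 hx0 hx1
  have hcpos : 0 < c := by rw [hcdef]; exact Nat.card_pos
  obtain ⟨k, hk⟩ : c ∣ Nat.card H := by rw [hcdef]; exact card_dvd_of_le inf_le_left
  have hT3 : Nat.card H ∣ c * Nat.card ((N : Set G) \ {1} : Set G) := by
    apply conj_count
    · intro l _ s hs
      refine ⟨hN.conj_mem s hs.1 l, ?_⟩
      intro h1
      apply hs.2
      rw [Set.mem_singleton_iff] at h1 ⊢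
      have e : s = l⁻¹ * (l * s * l⁻¹) * l := by group
      rw [e, h1]; group
    · intro s hs
      exact hc' s hs.1 hs.2
  have hcardN : Nat.card ((N : Set G) \ {1} : Set G) = Nat.card N - 1 := by
    rw [Nat.card_coe_set_eq, Set.ncard_sdiff_singleton_of_mem (one_mem N)]; rfl
  have hkN : k ∣ Nat.card N - 1 := by
    rw [hk, hcardN] at hT3
    exact Nat.dvd_of_mul_dvd_mul_left hcpos hT3
  have hcopN : Nat.Coprime (Nat.card N) k := by
    have hNpos : 0 < Nat.card N := Nat.card_pos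
    obtain ⟨m, hm⟩ : ∃ m, Nat.card N = m + 1 := ⟨Nat.card N - 1, by omega⟩
    rw [hm] at hkN ⊢
    have h1 : Nat.Coprime (m + 1) m := by simp
    exact Nat.Coprime.coprime_dvd_right hkN h1
  have eqR : ∀ x ∈ N, x ≠ 1 → ∀ z ∈ N, z ≠ 1 → (∀ h ∈ H, h * x = x * h → h * z = z * h) →
      ∀ h ∈ H, h * z = z * h → h * x = x * h := by
    intro x hx hx1' z hz hz1 hle
    have hle' : H ⊓ centralizer {x} ≤ H ⊓ centralizer {z} := fun h hh =>
      mem_R.2 ⟨(mem_R.1 hh).1, hle h (mem_R.1 hh).1 (mem_R.1 hh).2⟩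
    have heq := eq_of_le_of_card_ge hle' (by rw [hc' x hx hx1', hc' z hz hz1])
    intro h hh hhz
    have h1 : h ∈ H ⊓ centralizer {z} := mem_R.2 ⟨hh, hhz⟩
    rw [← heq] at h1
    exact (mem_R.1 h1).2
  have A1 : ∀ x ∈ N, x ≠ 1 → ∀ n ∈ N, ∀ h ∈ H, h * x = x * h →
      h * (n * x * n⁻¹) = (n * x * n⁻¹) * h := by
    intro x hx hx1' n hn h hh hhx
    let S : Set G := {s | ∃ m ∈ N, s = m * x * m⁻¹}
    have hSN : ∀ s ∈ S, s ∈ N ∧ s ≠ 1 := by
      rintro s ⟨m, hm, rfl⟩
      refine ⟨hN.conj_mem x hx m, fun h1 => hx1' ?_⟩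
      have e : x = m⁻¹ * (m * x * m⁻¹) * m := by group
      rw [e, h1]; group
    have hxS : x ∈ S := ⟨1, one_mem _, by simp⟩
    have hcardS : Nat.card S ∣ Nat.card N := by
      have hinv : ∀ l ∈ N, ∀ s ∈ S, l * s * l⁻¹ ∈ S := by
        rintro l hl s ⟨m, hm, rfl⟩
        exact ⟨l * m, mul_mem hl hm, by group⟩
      letI := conjSet N S hinv
      have h1 := MulAction.index_stabilizer (G := ↥N) (x := (⟨x, hxS⟩ : S))
      have h2 : MulAction.orbit ↥N (⟨x, hxS⟩ : S) = Set.univ := by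
        apply Set.eq_univ_of_forall
        rintro ⟨s, m, hm, rfl⟩
        exact ⟨⟨m, hm⟩, rfl⟩
      rw [h2, Set.ncard_univ] at h1
      rw [← h1]
      exact Subgroup.index_dvd_card _
    have hfix : ∀ s ∈ S, ∀ g ∈ H, g * s = s * g → ∀ t ∈ S, g * t * g⁻¹ ∈ S := by
      rintro s ⟨m, hm, rfl⟩ g hg hgs t ⟨m', hm', rfl⟩
      refine ⟨g * (m' * m⁻¹) * g⁻¹ * m,
        mul_mem (hN.conj_mem _ (mul_mem hm' (inv_mem hm)) g) hm, ?_⟩
      have e1 : g * (m * x * m⁻¹) * g⁻¹ = m * x * m⁻¹ := by rw [hgs]; group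
      calc g * (m' * x * m'⁻¹) * g⁻¹
          = (g * (m' * m⁻¹) * g⁻¹) * (g * (m * x * m⁻¹) * g⁻¹) * (g * (m' * m⁻¹) * g⁻¹)⁻¹ := by
            group
        _ = _ := by rw [e1]; group
    exact lemU H c k S (fun s hs => hc' s (hSN s hs).1 (hSN s hs).2) hfix
      (Nat.Coprime.coprime_dvd_left hcardS hcopN) hk x hxS _ ⟨n, hn, rfl⟩ h hh hhx
  have B1 : ∀ x ∈ N, x ≠ 1 → ∀ y ∈ N, y ≠ 1 → x * y ≠ y * x →
      ∀ h ∈ H, h * x = x * h → h * y = y * h := by
    intro x hx hx1' y hy hy1 hxy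
    have hwN : x * y * x⁻¹ * y⁻¹ ∈ N :=
      mul_mem (mul_mem (mul_mem hx hy) (inv_mem hx)) (inv_mem hy)
    have hw1 : x * y * x⁻¹ * y⁻¹ ≠ 1 := by
      intro h1
      apply hxy
      have e : x * y = (x * y * x⁻¹ * y⁻¹) * (y * x) := by group
      rw [e, h1, one_mul]
    have h1 : ∀ h ∈ H, h * x = x * h → h * (x * y * x⁻¹ * y⁻¹) = (x * y * x⁻¹ * y⁻¹) * h := by
      intro h hh hhx
      have h2 : h * (y * x * y⁻¹) = (y * x * y⁻¹) * h := A1 x hx hx1' y hy h hh hhx
      have e : x * y * x⁻¹ * y⁻¹ = x * (y * x * y⁻¹)⁻¹ := by group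
      rw [e]
      exact ((show Commute h x from hhx).mul_right
        (Commute.inv_right (show Commute h _ from h2))).eq
    have h2 : ∀ h ∈ H, h * y = y * h → h * (x * y * x⁻¹ * y⁻¹) = (x * y * x⁻¹ * y⁻¹) * h := by
      intro h hh hhy
      have h3 : h * (x * y * x⁻¹) = (x * y * x⁻¹) * h := A1 y hy hy1 x hx h hh hhy
      exact ((show Commute h _ from h3).mul_right
        (Commute.inv_right (show Commute h y from hhy))).eq
    intro h hh hhx
    exact eqR y hy hy1 _ hwN hw1 h2 h hh (h1 h hh hhx)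
  have hc1 : 1 < c := by
    rw [hcdef, Subgroup.one_lt_card_iff_ne_bot]
    intro hbot
    have h1 : h0 ∈ H ⊓ centralizer {x0} := mem_R.2 ⟨hh0, hcomm0⟩
    rw [hbot, mem_bot] at h1
    exact hh1 h1
  have hab : ∀ x ∈ N, ∀ y ∈ N, x * y = y * x := by
    intro x hx y hy
    by_contra hxy
    have hx1' : x ≠ 1 := by rintro rfl; simp at hxy
    have hy1 : y ≠ 1 := by rintro rfl; simp at hxy
    have hxy' := B1 x hx hx1' y hy hy1 hxy
    have hRne : H ⊓ centralizer {x} ≠ ⊥ := by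
      rw [← Subgroup.one_lt_card_iff_ne_bot, hc' x hx hx1']; exact hc1
    obtain ⟨⟨g, hg⟩, hg1⟩ := (Subgroup.ne_bot_iff_exists_ne_one).1 hRne
    have hg1' : g ≠ 1 := fun h => hg1 (Subtype.ext h)
    obtain ⟨hgH, hgx⟩ := mem_R.1 hg
    obtain ⟨w, hwN, hgw⟩ : ∃ w ∈ N, g * w ≠ w * g := by
      by_contra hcon
      push Not at hcon
      exact hg1' (hfaith g hgH hcon)
    have hw1 : w ≠ 1 := by rintro rfl; simp at hgw
    have hxw : x * w = w * x := by
      by_contra h
      exact hgw (B1 x hx hx1' w hwN hw1 h g hgH hgx)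
    have hgy : g * y = y * g := hxy' g hgH hgx
    have hyw : y * w = w * y := by
      by_contra h
      exact hgw (B1 y hy hy1 w hwN hw1 h g hgH hgy)
    have hv1 : x * w ≠ 1 := by
      intro h
      apply hgw
      have e : w = x⁻¹ := by rw [eq_inv_iff_mul_eq_one, ← hxw]; exact h
      rw [e]
      exact (Commute.inv_right (show Commute g x from hgx)).eq
    have hyv : y * (x * w) = (x * w) * y := by
      by_contra h
      have h1 := B1 y hy hy1 (x * w) (mul_mem hx hwN) hv1 h g hgH hgy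
      apply hgw
      have e : x * (g * w) = x * (w * g) := by
        calc x * (g * w) = (g * x) * w := by rw [hgx]; group
          _ = g * (x * w) := by group
          _ = x * w * g := h1
          _ = x * (w * g) := by group
      exact mul_left_cancel e
    apply hxy
    have e : (x * y) * w = (y * x) * w := by
      calc (x * y) * w = x * (y * w) := by group
        _ = x * (w * y) := by rw [hyw]
        _ = (x * w) * y := by group
        _ = y * (x * w) := hyv.symm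
        _ = (y * x) * w := by group
    exact mul_right_cancel e
  have noInv : ∀ K : Subgroup G, K ≤ N → (∀ h ∈ H, ∀ y ∈ K, h * y * h⁻¹ ∈ K) →
      K = ⊥ ∨ K = N := by
    intro K hKN hKH
    by_contra hcon
    push Not at hcon
    obtain ⟨hK1, hK2⟩ := hcon
    obtain ⟨⟨y1, hy1K⟩, hy1⟩ := (Subgroup.ne_bot_iff_exists_ne_one).1 hK1
    have hy1' : y1 ≠ 1 := fun h => hy1 (Subtype.ext h)
    obtain ⟨x1, hx1N, hx1K⟩ : ∃ x ∈ N, x ∉ K := by
      by_contra h
      push Not at h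
      exact hK2 (le_antisymm hKN h)
    have hx11 : x1 ≠ 1 := by rintro rfl; exact hx1K (one_mem K)
    have key : ∀ x ∈ N, x ∉ K → ∀ y ∈ K, ∀ h ∈ H, h * x = x * h → h * y = y * h := by
      intro x hx hxK y hy h hh hhx
      let S : Set G := {t | x⁻¹ * t ∈ K}
      have hSN : ∀ s ∈ S, s ∈ N ∧ s ≠ 1 := by
        intro s hs
        constructor
        · have e : s = x * (x⁻¹ * s) := by group
          rw [e]; exact mul_mem hx (hKN hs)
        · rintro rfl
          apply hxK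
          have h1 : x⁻¹ * 1 ∈ K := hs
          rw [mul_one] at h1
          simpa using inv_mem h1
      have hcardS : Nat.card S = Nat.card K :=
        Nat.card_congr
          { toFun := fun s => ⟨x⁻¹ * s.1, s.2⟩
            invFun := fun y => ⟨x * y.1, by
              show x⁻¹ * (x * y.1) ∈ K
              simp⟩
            left_inv := fun s => Subtype.ext (by simp)
            right_inv := fun y => Subtype.ext (by simp) }
      have hxS : x ∈ S := by
        show x⁻¹ * x ∈ K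
        simp
      have hxyS : x * y ∈ S := by
        show x⁻¹ * (x * y) ∈ K
        simpa using hy
      have hfix : ∀ s ∈ S, ∀ g ∈ H, g * s = s * g → ∀ t ∈ S, g * t * g⁻¹ ∈ S := by
        intro s hs g hg hgs t ht
        show x⁻¹ * (g * t * g⁻¹) ∈ K
        have h1 : s⁻¹ * t ∈ K := by
          have e : s⁻¹ * t = (x⁻¹ * s)⁻¹ * (x⁻¹ * t) := by group
          rw [e]; exact mul_mem (inv_mem hs) ht
        have h2 := hKH g hg _ h1
        have h3 : g * s⁻¹ = s⁻¹ * g := (Commute.inv_right (show Commute g s from hgs)).eq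
        have e : x⁻¹ * (g * t * g⁻¹) = (x⁻¹ * s) * (g * (s⁻¹ * t) * g⁻¹) := by
          calc x⁻¹ * (g * t * g⁻¹) = x⁻¹ * s * (s⁻¹ * g) * t * g⁻¹ := by group
            _ = x⁻¹ * s * (g * s⁻¹) * t * g⁻¹ := by rw [h3]
            _ = _ := by group
        rw [e]; exact mul_mem hs h2
      have h4 := lemU H c k S (fun s hs => hc' s (hSN s hs).1 (hSN s hs).2) hfix
        (by rw [hcardS]; exact Nat.Coprime.coprime_dvd_left (card_dvd_of_le hKN) hcopN) hk
        x hxS (x * y) hxyS h hh hhx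
      have e : x * (h * y) = x * (y * h) := by
        calc x * (h * y) = (h * x) * y := by rw [hhx]; group
          _ = h * (x * y) := by group
          _ = x * y * h := h4
          _ = x * (y * h) := by group
      exact mul_left_cancel e
    have all : ∀ u ∈ N, u ≠ 1 → ∀ v ∈ N, v ≠ 1 → ∀ h ∈ H, h * u = u * h → h * v = v * h := by
      intro u hu hu1 v hv hv1 h hh hhu
      by_cases huK : u ∈ K
      · by_cases hvK : v ∈ K
        · have h1 : h * x1 = x1 * h :=
            eqR x1 hx1N hx11 u hu hu1 (key x1 hx1N hx1K u huK) h hh hhu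
          exact key x1 hx1N hx1K v hvK h hh h1
        · exact eqR v hv hv1 u hu hu1 (key v hv hvK u huK) h hh hhu
      · by_cases hvK : v ∈ K
        · exact key u hu huK v hvK h hh hhu
        · have h1 := key u hu huK y1 hy1K h hh hhu
          exact eqR v hv hv1 y1 (hKN hy1K) hy1' (key v hv hvK y1 hy1K) h hh h1
    apply hh1
    apply hfaith h0 hh0
    intro n hn
    by_cases hn1 : n = 1
    · subst hn1; simp
    · exact all x0 hx0 hx1 n hn hn1 h0 hh0 hcomm0
  constructor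
  · have hN1 : Nat.card N ≠ 1 := by
      intro h
      rw [Subgroup.card_eq_one] at h
      rw [h, mem_bot] at hx0
      exact hx1 hx0
    obtain ⟨p, hp, hpN⟩ := Nat.exists_prime_and_dvd hN1
    haveI := Fact.mk hp
    refine ⟨p, hp, ⟨⟨fun a b => Subtype.ext (hab a a.2 b b.2)⟩⟩, ?_⟩
    let K : Subgroup G :=
      { carrier := {x | x ∈ N ∧ x ^ p = 1}
        one_mem' := ⟨one_mem _, one_pow _⟩
        mul_mem' := by
          rintro a b ⟨ha, ha'⟩ ⟨hb, hb'⟩
          exact ⟨mul_mem ha hb, by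
            rw [(show Commute a b from hab a ha b hb).mul_pow, ha', hb', one_mul]⟩
        inv_mem' := by
          rintro a ⟨ha, ha'⟩
          exact ⟨inv_mem ha, by rw [inv_pow, ha', inv_one]⟩ }
    have hKN : K ≤ N := fun x hx => hx.1
    have hKH : ∀ h ∈ H, ∀ y ∈ K, h * y * h⁻¹ ∈ K := by
      intro h _ y hy
      exact ⟨hN.conj_mem y hy.1 h, by rw [conj_pow, hy.2]; group⟩
    obtain ⟨z, hz⟩ := exists_prime_orderOf_dvd_card' (G := ↥N) p hpN
    rcases noInv K hKN hKH with h | h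
    · exfalso
      have hzK : (z : G) ∈ K := ⟨z.2, by
        have h1 : z ^ p = 1 := by rw [← hz]; exact pow_orderOf_eq_one z
        exact_mod_cast congrArg Subtype.val h1⟩
      rw [h, mem_bot] at hzK
      have hz1 : z = 1 := Subtype.ext hzK
      rw [hz1, orderOf_one] at hz
      exact hp.one_lt.ne hz
    · intro x hx
      rw [← h] at hx
      exact hx.2
  · intro M hM hM1
    have hKH : ∀ h ∈ H, ∀ y ∈ M ⊓ N, h * y * h⁻¹ ∈ M ⊓ N := by
      intro h _ y hy
      exact mem_inf.2 ⟨hM.conj_mem y hy.1 h, hN.conj_mem y hy.2 h⟩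
    rcases noInv (M ⊓ N) inf_le_right hKH with h | h
    · exfalso
      obtain ⟨⟨m, hm⟩, hm1⟩ := (Subgroup.ne_bot_iff_exists_ne_one).1 hM1
      have hm1' : m ≠ 1 := fun h => hm1 (Subtype.ext h)
      have hcen : ∀ n ∈ N, m * n = n * m := by
        intro n hn
        have h1 : m * n * m⁻¹ * n⁻¹ ∈ M ⊓ N := by
          refine mem_inf.2 ⟨?_, mul_mem (hN.conj_mem n hn m) (inv_mem hn)⟩
          have e : m * n * m⁻¹ * n⁻¹ = m * (n * m⁻¹ * n⁻¹) := by group
          rw [e]
          exact mul_mem hm (hM.conj_mem _ (inv_mem hm) n)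
        rw [h, mem_bot] at h1
        have e : m * n = (m * n * m⁻¹ * n⁻¹) * (n * m) := by group
        rw [e, h1, one_mul]
      obtain ⟨n, hn, g, hg, hmg⟩ := hG m
      have hg1 : g = 1 := by
        apply hfaith g hg
        intro n' hn'
        have e : g = n⁻¹ * m := by rw [hmg]; group
        rw [e]
        have h1 : n⁻¹ * n' = n' * n⁻¹ := hab _ (inv_mem hn) _ hn'
        calc n⁻¹ * m * n' = n⁻¹ * (m * n') := by group
          _ = n⁻¹ * (n' * m) := by rw [hcen n' hn']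
          _ = (n⁻¹ * n') * m := by group
          _ = (n' * n⁻¹) * m := by rw [h1]
          _ = n' * (n⁻¹ * m) := by group
      rw [hg1, mul_one] at hmg
      have h2 : m ∈ M ⊓ N := mem_inf.2 ⟨hm, hmg ▸ hn⟩
      rw [h, mem_bot] at h2
      exact hm1' h2
    · rw [← h]; exact inf_le_left

end Cfsg.Agent.H20.HalfTrans
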