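import Mathlib
import Cfsg.Prelude.Def_OddOrderLocal
import Cfsg.Agent.H1.Hall
import Cfsg.Agent.H1.Coprime
import Cfsg.Agent.H20.PGroup

/-!
Coprime action and Hall subgroups of solvable groups (helper20).
-/

set_option autoImplicit false

namespace Cfsg.Agent.H20

open Subgroup Cfsg.H1
open scoped Pointwise

universe u

theorem pi_factor (π : Set ℕ) (N : ℕ) : N ≠ 0 → ∃ m n : ℕ, N = m * n ∧
    (∀ p : ℕ, p.Prime → p ∣ m → p ∈ π) ∧ (∀ p : ℕ, p.Prime → p ∈ π → ¬ p ∣ n) := by
  classical
  induction N using induction_on_primes with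
  | zero => intro h; exact absurd rfl h
  | one =>
    intro _
    exact ⟨1, 1, rfl, fun p hp h => absurd (Nat.dvd_one.1 h) hp.ne_one,
      fun p hp _ h => hp.ne_one (Nat.dvd_one.1 h)⟩
  | prime_mul p a hp ih =>
    intro hN
    have ha : a ≠ 0 := by rintro rfl; simp at hN
    obtain ⟨m, n, e, h1, h2⟩ := ih ha
    by_cases hpπ : p ∈ π
    · refine ⟨p * m, n, by rw [e]; ring, ?_, h2⟩
      intro q hq hqd
      rcases (Nat.Prime.dvd_mul hq).1 hqd with h | h
      · rw [(Nat.prime_dvd_prime_iff_eq hq hp).1 h]; exact hpπ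
      · exact h1 q hq h
    · refine ⟨m, p * n, by rw [e]; ring, h1, ?_⟩
      intro q hq hqπ hqd
      rcases (Nat.Prime.dvd_mul hq).1 hqd with h | h
      · exact hpπ ((Nat.prime_dvd_prime_iff_eq hq hp).1 h ▸ hqπ)
      · exact h2 q hq hqπ h

theorem isPiHallOf_iff_card {X : Type*} [Group X] [Finite X] {π : Set ℕ} {G : Subgroup X} {m n : ℕ}
    (hG : Nat.card G = m * n) (hm : ∀ p : ℕ, p.Prime → p ∣ m → p ∈ π)
    (hn : ∀ p : ℕ, p.Prime → p ∈ π → ¬ p ∣ n) (H : Subgroup X) :
    Cfsg.IsPiHallOf π H G ↔ H ≤ G ∧ Nat.card H = m := by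
  constructor
  · rintro ⟨h1, h2, h3⟩
    refine ⟨h1, ?_⟩
    have e := card_mul_relIndex h1
    rw [hG] at e
    apply Nat.dvd_antisymm
    · have hc : (Nat.card H).Coprime n := Nat.coprime_of_dvd (fun k hk hk1 => hn k hk (h2 k hk hk1))
      exact hc.dvd_of_dvd_mul_right (Dvd.intro _ e)
    · have hc : m.Coprime (H.relIndex G) :=
        Nat.coprime_of_dvd (fun k hk hk1 => h3 k hk (hm k hk hk1))
      exact hc.dvd_of_dvd_mul_right (Dvd.intro _ e.symm)
  · rintro ⟨h1, h2⟩
    refine ⟨h1, fun p hp hd => hm p hp (h2 ▸ hd), ?_⟩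
    have e := card_mul_relIndex h1
    rw [hG, h2] at e
    have hm0 : 0 < m := h2 ▸ Nat.card_pos
    rw [Nat.eq_of_mul_eq_mul_left hm0 e]
    exact hn

/-- The dominance part of Hall's theorem in a group `Γ` with a solvable normal subgroup `G` whose order
is divisible by the `n`-part. -/
theorem hall_dom_rel_aux (N : ℕ) : ∀ (Γ : Type u) [Group Γ] [Finite Γ] (G : Subgroup Γ) [G.Normal],
    Group.IsSolvable G → Nat.card Γ ≤ N → ∀ (m n : ℕ), Nat.card Γ = m * n → m.Coprime n →
    n ∣ Nat.card G →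
    ∀ K : Subgroup Γ, (Nat.card K).Coprime n → ∃ H : Subgroup Γ, Nat.card H = m ∧ K ≤ H := by
  induction N with
  | zero =>
    intro Γ _ _ _ _ _ h
    exact absurd h (by have := Nat.card_pos (α := Γ); omega)
  | succ N ih =>
    intro Γ _ _ G _ hs hN m n hG hmn hnG K hK
    by_cases hG1 : G = ⊥
    · rw [hG1, card_bot, Nat.dvd_one] at hnG
      exact ⟨⊤, by rw [card_top, hG, hnG, mul_one], le_top⟩
    · obtain ⟨p, M, hp, hMn, hMG, hMbot, -, hM5⟩ := exists_normal_elemAb_le G hs hG1
      have hMp : IsPGroup p M := fun x => ⟨1, by rw [pow_one]; exact Subtype.ext (hM5 x x.2)⟩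
      have : Fact p.Prime := ⟨hp⟩
      have hQ : Nat.card (Γ ⧸ M) ≤ N := by have := card_quotient_lt hMbot; omega
      have hcard : Nat.card (Γ ⧸ M) * Nat.card M = m * n := by
        rw [← hG]; exact (card_eq_card_quotient_mul_card_subgroup M).symm
      have hMdvd : Nat.card M ∣ m * n := Dvd.intro_left _ hcard
      have hGn : (G.map (QuotientGroup.mk' M)).Normal :=
        Normal.map inferInstance _ (QuotientGroup.mk'_surjective M)
      have hGs : Group.IsSolvable (G.map (QuotientGroup.mk' M)) :=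
        Group.isSolvable_of_surjective ((QuotientGroup.mk' M).subgroupMap_surjective G)
      have hGc := card_map_mk'_of_le hMG
      rcases pgroup_coprime_or hp hMp hmn with hc | hc
      · obtain ⟨n', hn'⟩ := hc.dvd_of_dvd_mul_left hMdvd
        have hQcard : Nat.card (Γ ⧸ M) = m * n' := by
          apply Nat.eq_of_mul_eq_mul_right (Nat.card_pos (α := M))
          rw [hcard, hn']; ring
        have hmn' : m.Coprime n' := hmn.coprime_dvd_right ⟨Nat.card M, by rw [hn']; ring⟩
        have hn'G : n' ∣ Nat.card (G.map (QuotientGroup.mk' M)) := by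
          rw [← hGc, hn', mul_comm] at hnG
          exact Nat.dvd_of_mul_dvd_mul_right Nat.card_pos hnG
        have hKmap : (Nat.card (K.map (QuotientGroup.mk' M))).Coprime n' :=
          Nat.Coprime.coprime_dvd_left (card_map_dvd K _)
            (Nat.Coprime.coprime_dvd_right ⟨Nat.card M, by rw [hn']; ring⟩ hK)
        obtain ⟨H', hH', hKH'⟩ := ih (Γ ⧸ M) _ hGs hQ m n' hQcard hmn' hn'G _ hKmap
        have hKL : K ≤ H'.comap (QuotientGroup.mk' M) := map_le_iff_le_comap.1 hKH'
        obtain ⟨hML, hrel⟩ := relIndex_comap_mk' M H'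
        obtain ⟨B, hBL, hBcard, hBd, hBsup⟩ := sz_exists_internal hML le_normalizer_of_normal
          (by rw [hrel, hH']; exact hc)
        have hsup : M ⊔ (M ⊔ K) ⊓ B = M ⊔ K := by
          apply le_antisymm (sup_le le_sup_left inf_le_left)
          apply sup_le le_sup_left
          intro x hx
          have hxL : x ∈ M ⊔ B := hBsup ▸ hKL hx
          rw [← SetLike.mem_coe, normal_mul] at hxL
          obtain ⟨u, hu, b, hb, rfl⟩ := Set.mem_mul.1 hxL
          refine mul_mem_sup hu ⟨?_, hb⟩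
          have : b = u⁻¹ * (u * b) := by group
          rw [this]; exact mul_mem_sup (M.inv_mem hu) hx
        have hcMK : (Nat.card K).Coprime (Nat.card M) :=
          Nat.Coprime.coprime_dvd_right ⟨n', hn'⟩ hK
        have dK : Disjoint M K := disjoint_of_coprime_natCard hcMK.symm
        have dK₂ : Disjoint M ((M ⊔ K) ⊓ B) := hBd.mono_right inf_le_right
        have hcardK₂ : Nat.card ((M ⊔ K) ⊓ B : Subgroup Γ) = Nat.card K := by
          have e1 := card_sup_of_disjoint (A := (M ⊔ K) ⊓ B) (K := M) le_normalizer_of_normal dK₂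
          have e2 := card_sup_of_disjoint (A := K) (K := M) le_normalizer_of_normal dK
          rw [hsup, e2] at e1
          exact (Nat.eq_of_mul_eq_mul_left Nat.card_pos e1).symm
        have hMsolv : Group.IsSolvable M := by
          have := hMp.isNilpotent
          infer_instance
        obtain ⟨u, hu, huK⟩ := sz_conj_internal (A := (M ⊔ K) ⊓ B) (K := M) (B := K)
          le_normalizer_of_normal (by rw [hcardK₂]; exact hcMK) (Or.inr hMsolv)
          (by rw [hsup]; exact le_sup_right) hcardK₂.symm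
        refine ⟨MulAut.conj u • B, by rw [card_conj_smul, hBcard, hrel, hH'], ?_⟩
        rw [← huK]; exact pointwise_smul_le_pointwise_smul_iff.2 inf_le_right
      · obtain ⟨m', hm'⟩ := hc.dvd_of_dvd_mul_right hMdvd
        have hQcard : Nat.card (Γ ⧸ M) = m' * n := by
          apply Nat.eq_of_mul_eq_mul_right (Nat.card_pos (α := M))
          rw [hcard, hm']; ring
        have hmn' : m'.Coprime n := hmn.coprime_dvd_left ⟨Nat.card M, by rw [hm']; ring⟩
        have hnG' : n ∣ Nat.card (G.map (QuotientGroup.mk' M)) := by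
          rw [← hGc] at hnG
          exact hc.symm.dvd_of_dvd_mul_right hnG
        obtain ⟨H', hH', hKH'⟩ := ih (Γ ⧸ M) _ hGs hQ m' n hQcard hmn' hnG' (K.map (QuotientGroup.mk' M))
          (Nat.Coprime.coprime_dvd_left (card_map_dvd K _) hK)
        exact ⟨H'.comap (QuotientGroup.mk' M), by rw [card_comap_mk', hH', hm']; ring,
          map_le_iff_le_comap.1 hKH'⟩

/-- Every `A`-invariant subgroup of order prime to `n` lies in an `A`-invariant Hall subgroup. -/
theorem coprime_hall_contain {X : Type u} [Group X] [Finite X] (A G U : Subgroup X)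
    (hAG : A ≤ normalizer (G : Set X)) (hcop : (Nat.card A).Coprime (Nat.card G))
    (hsolv : Group.IsSolvable G) {m n : ℕ} (hG : Nat.card G = m * n) (hmn : m.Coprime n)
    (hUG : U ≤ G) (hAU : A ≤ normalizer (U : Set X)) (hU : (Nat.card U).Coprime n) :
    ∃ H : Subgroup X, H ≤ G ∧ Nat.card H = m ∧ A ≤ normalizer (H : Set X) ∧ U ≤ H := by
  have hd : Disjoint G A := disjoint_of_coprime_natCard hcop.symm
  have hN : (G.subgroupOf (G ⊔ A)).Normal := normal_subgroupOf_sup hAG
  have hAn : (Nat.card A).Coprime n := hcop.coprime_dvd_right ⟨m, by rw [hG]; ring⟩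
  have hUA : U ⊔ A ≤ G ⊔ A := sup_le_sup_right hUG A
  obtain ⟨H', hH', hKH'⟩ := hall_dom_rel_aux (Nat.card (G ⊔ A : Subgroup X)) (G ⊔ A : Subgroup X)
    (G.subgroupOf (G ⊔ A)) (isSolvable_subgroupOf _ hsolv) le_rfl (m * Nat.card A) n
    (by rw [card_sup_of_disjoint hAG hd, hG]; ring) (Nat.Coprime.mul_left hmn hAn)
    (by rw [card_subgroupOf_of_le le_sup_left, hG]; exact Dvd.intro_left _ rfl)
    ((U ⊔ A).subgroupOf (G ⊔ A))
    (by
      rw [card_subgroupOf_of_le hUA, card_sup_of_disjoint hAU (hd.mono_left hUG)]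
      exact Nat.Coprime.mul_left hU hAn)
  set H1 := H'.map (G ⊔ A : Subgroup X).subtype with hH1
  have hH1c : Nat.card H1 = m * Nat.card A := by
    rw [hH1, card_map_of_injective (subtype_injective _), hH']
  have hH1le : H1 ≤ G ⊔ A := map_subtype_le H'
  have hUAH : U ⊔ A ≤ H1 := by
    have := map_mono (f := (G ⊔ A : Subgroup X).subtype) hKH'
    rwa [map_subgroupOf_eq_of_le hUA] at this
  have hAH1 : A ≤ H1 := le_sup_right.trans hUAH
  have hAH : A ≤ normalizer ((H1 ⊓ G : Subgroup X) : Set X) :=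
    (le_inf (hAH1.trans le_normalizer) hAG).trans inf_normalizer_le_normalizer_inf
  refine ⟨H1 ⊓ G, inf_le_right, ?_, hAH, le_inf (le_sup_left.trans hUAH) hUG⟩
  have hsup : (H1 ⊓ G) ⊔ A = H1 := by
    apply le_antisymm (sup_le inf_le_left hAH1)
    intro x hx
    have hx' : x ∈ (G : Set X) * A := by
      rw [← coe_mul_of_right_le_normalizer_left G A hAG]; exact hH1le hx
    obtain ⟨g, hg, a, ha, rfl⟩ := Set.mem_mul.1 hx'
    refine mul_mem_sup ⟨?_, hg⟩ ha
    have : g = (g * a) * a⁻¹ := by group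
    rw [this]; exact H1.mul_mem hx (H1.inv_mem (hAH1 ha))
  have e := card_sup_of_disjoint hAH (hd.mono_left inf_le_right)
  rw [hsup, hH1c] at e
  exact (Nat.eq_of_mul_eq_mul_right Nat.card_pos e).symm

/-- `A`-invariant Hall subgroups are conjugate under `C_G(A)`. -/
theorem coprime_hall_conj {X : Type u} [Group X] [Finite X] (A G H₁ H₂ : Subgroup X)
    (hAG : A ≤ normalizer (G : Set X)) (hcop : (Nat.card A).Coprime (Nat.card G))
    (hsolv : Group.IsSolvable G) {m n : ℕ} (hG : Nat.card G = m * n) (hmn : m.Coprime n)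
    (h1G : H₁ ≤ G) (h1c : Nat.card H₁ = m) (h1A : A ≤ normalizer (H₁ : Set X))
    (h2G : H₂ ≤ G) (h2c : Nat.card H₂ = m) (h2A : A ≤ normalizer (H₂ : Set X)) :
    ∃ c ∈ G ⊓ centralizer (A : Set X), MulAut.conj c • H₁ = H₂ := by
  have hrel : H₁.relIndex G = n := by
    have e := card_mul_relIndex h1G
    rw [hG, h1c] at e
    exact Nat.eq_of_mul_eq_mul_left (h1c ▸ Nat.card_pos) e
  obtain ⟨l, hl, hlH⟩ := hall_conj_internal hsolv h1G h2G (by rw [h1c, hrel]; exact hmn)
    (h2c.trans h1c.symm)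
  set D := G ⊓ normalizer (H₁ : Set X) with hD
  have hAD : A ≤ normalizer (D : Set X) :=
    (le_inf hAG (h1A.trans le_normalizer)).trans inf_normalizer_le_normalizer_inf
  have hconj : ∀ a ∈ A, ∀ H : Subgroup X, A ≤ normalizer (H : Set X) → MulAut.conj a • H = H := by
    intro a ha H hH
    exact (mem_normalizer_iff_map_conj_eq).1 (hH ha)
  obtain ⟨d, hd, hc⟩ := exists_mul_mem_centralizer hAD (coprime_of_le_right inf_le_left hcop)
    (Or.inr (isSolvable_of_le inf_le_left hsolv)) l (by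
      intro a ha
      refine ⟨?_, ?_⟩
      · have h3 : a * l * a⁻¹ ∈ G := (mem_normalizer_iff.1 (hAG ha) l).1 hl
        have e : l⁻¹ * a * l * a⁻¹ = l⁻¹ * (a * l * a⁻¹) := by group
        rw [e]; exact G.mul_mem (G.inv_mem hl) h3
      · change l⁻¹ * a * l * a⁻¹ ∈ normalizer (H₁ : Set X)
        rw [mem_normalizer_iff_map_conj_eq]
        change MulAut.conj (l⁻¹ * a * l * a⁻¹) • H₁ = H₁
        rw [conj_mul_smul, conj_mul_smul, conj_mul_smul, hconj a⁻¹ (A.inv_mem ha) H₁ h1A, hlH,
          hconj a ha H₂ h2A, ← hlH, ← conj_mul_smul, inv_mul_cancel, map_one, one_smul])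
  refine ⟨l * d, ⟨G.mul_mem hl hd.1, hc⟩, ?_⟩
  rw [conj_mul_smul, (mem_normalizer_iff_map_conj_eq).1 hd.2 |> fun h => (h : MulAut.conj d • H₁ = H₁), hlH]

end Cfsg.Agent.H20
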