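import Mathlib
import Cfsg.Agent.H1.Fit

/-!
Primary decomposition of elements (helper20).
-/

set_option autoImplicit false

namespace Cfsg.Agent.H20

open Subgroup

variable {G : Type*} [Group G]

/-- If all the powers of `y` of prime power order lie in `H`, so does `y`. -/
theorem mem_of_primary_mem (H : Subgroup G) (y : G) (hy : IsOfFinOrder y)
    (h : ∀ p : ℕ, p.Prime → ∀ z ∈ zpowers y, (∃ a : ℕ, z ^ p ^ a = 1) → z ∈ H) : y ∈ H := by
  classical
  have hex : ∃ k : ℕ, 0 < k ∧ y ^ k ∈ H :=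
    ⟨orderOf y, hy.orderOf_pos, by rw [pow_orderOf_eq_one]; exact H.one_mem⟩
  have hspec := Nat.find_spec hex
  have hmin : ∀ j : ℕ, j < Nat.find hex → ¬ (0 < j ∧ y ^ j ∈ H) := fun j hj => Nat.find_min hex hj
  set m := Nat.find hex with hm
  have hdvd : ∀ k : ℕ, y ^ k ∈ H → m ∣ k := by
    intro k hk
    have h1 : y ^ (k % m) ∈ H := by
      have e : y ^ k = (y ^ m) ^ (k / m) * y ^ (k % m) := by
        rw [← pow_mul, ← pow_add, Nat.div_add_mod]
      rw [e] at hk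
      exact (H.mul_mem_cancel_left (H.pow_mem hspec.2 _)).1 hk
    have h2 : k % m < m := Nat.mod_lt _ hspec.1
    have h3 := hmin _ h2
    rw [Nat.dvd_iff_mod_eq_zero]
    by_contra h4
    exact h3 ⟨Nat.pos_of_ne_zero h4, h1⟩
  by_cases hm1 : m = 1
  · have := hspec.2
    rwa [hm1, pow_one] at this
  · exfalso
    obtain ⟨p, hp, hpm⟩ := Nat.exists_prime_and_dvd hm1
    obtain ⟨a, s, hs, e⟩ := Nat.exists_eq_pow_mul_and_not_dvd hy.orderOf_pos.ne' p hp.ne_one
    have h1 : y ^ s ∈ H := by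
      apply h p hp _ (Subgroup.pow_mem _ (mem_zpowers y) s) ⟨a, ?_⟩
      rw [← pow_mul, mul_comm, ← e, pow_orderOf_eq_one]
    exact hs (hpm.trans (hdvd s h1))

/-- A `p`-element of the Fitting subgroup lies in `O_p(G)`. -/
theorem mem_pCore_of_mem_fitting [Finite G] {p : ℕ} [Fact p.Prime] {z : G}
    (hz : z ∈ Cfsg.fittingSubgroup G) (hp : ∃ a : ℕ, z ^ p ^ a = 1) : z ∈ Cfsg.pCore p G := by
  have hnil : Group.IsNilpotent (Cfsg.fittingSubgroup G) :=
    Cfsg.Agent.Lib.Helper22.fittingSubgroup_isNilpotent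
  have hnor : (Cfsg.fittingSubgroup G).Normal := Cfsg.Agent.Lib.Helper22.fittingSubgroup_normal
  obtain ⟨a, ha⟩ := hp
  have h1 : IsPGroup p (zpowers (⟨z, hz⟩ : Cfsg.fittingSubgroup G)) := by
    rw [IsPGroup.iff_card]
    rw [Nat.card_zpowers]
    have : orderOf (⟨z, hz⟩ : Cfsg.fittingSubgroup G) ∣ p ^ a := by
      apply orderOf_dvd_of_pow_eq_one
      ext; exact ha
    obtain ⟨k, -, hk⟩ := (Nat.dvd_prime_pow Fact.out).1 this
    exact ⟨k, hk⟩
  obtain ⟨S, hS⟩ := h1.exists_le_sylow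
  have hn : (S : Subgroup (Cfsg.fittingSubgroup G)).Normal := inferInstance
  have hc : (S : Subgroup (Cfsg.fittingSubgroup G)).Characteristic := Sylow.characteristic_of_normal S hn
  have h2 : (S : Subgroup (Cfsg.fittingSubgroup G)).map (Cfsg.fittingSubgroup G).subtype ≤ Cfsg.pCore p G :=
    Cfsg.H1.le_pCore (ConjAct.normal_of_characteristic_of_normal) (S.2.map _)
  exact h2 ⟨⟨z, hz⟩, hS (mem_zpowers _), rfl⟩

/-- The centralizer of a conjugation invariant set is normal. -/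
theorem normal_centralizer_of_invariant (S : Set G) (hS : ∀ s ∈ S, ∀ g : G, g * s * g⁻¹ ∈ S) :
    (centralizer S).Normal := by
  constructor
  intro n hn g
  rw [mem_centralizer_iff] at hn ⊢
  intro s hs
  have h1 := hn (g⁻¹ * s * g⁻¹⁻¹) (hS s hs g⁻¹)
  calc s * (g * n * g⁻¹) = g * ((g⁻¹ * s * g⁻¹⁻¹) * n) * g⁻¹ := by group
    _ = g * (n * (g⁻¹ * s * g⁻¹⁻¹)) * g⁻¹ := by rw [h1]
    _ = g * n * g⁻¹ * s := by group

end Cfsg.Agent.H20
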