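import Cfsg.Agent.H20.Wielandt
import Cfsg.Agent.Lib.Helper22.FittingSub

/-! Primitive subgroups (helper20). -/

set_option autoImplicit false

namespace Cfsg.Agent.H20

open Subgroup

variable {G : Type*} [Group G]

/-- `M` is a primitive subgroup of `G`. -/
def IsPrim (M : Subgroup G) : Prop :=
  M ≠ ⊤ ∧ ∀ N : Subgroup G, N ≤ M → M ≤ normalizer (N : Set G) → N ≠ ⊥ → normalizer (N : Set G) = M

theorem IsPrim.not_normal_le {M : Subgroup G} (hM : IsPrim M) (A : Subgroup G) (hA : A.Normal)
    (hne : A ≠ ⊥) : ¬ A ≤ M := by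
  intro hAM
  have h1 := hM.2 A hAM (by rw [normalizer_eq_top_iff.2 hA]; exact le_top) hne
  rw [normalizer_eq_top_iff.2 hA] at h1
  exact hM.1 h1.symm

theorem IsPrim.subnormal_eq_bot [Finite G] {M : Subgroup G} (hM : IsPrim M) (L : Subgroup G)
    (hL : L.IsSubnormal) (hLM : L ≤ M) : L = ⊥ := by
  by_contra hne
  have hnt : Nontrivial G := by
    by_contra h
    rw [not_nontrivial_iff_subsingleton] at h
    exact hM.1 (Subsingleton.elim _ _)
  obtain ⟨A, hA⟩ := exists_minNormalIn_top (G := G)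
  set N := ⨆ m : M, L.map (MulAut.conj (m : G)).toMonoidHom with hN
  have hNM : N ≤ M := by
    apply iSup_le
    intro m
    rintro _ ⟨l, hl, rfl⟩
    exact M.mul_mem (M.mul_mem m.2 (hLM hl)) (M.inv_mem m.2)
  have hLN : L ≤ N := by
    have := le_iSup (fun t : M => L.map (MulAut.conj (t : G)).toMonoidHom) 1
    have e : L.map (MulAut.conj (((1 : M) : G))).toMonoidHom = L := sconj_one L
    rw [e] at this
    exact this
  have hNn : M ≤ normalizer (N : Set G) := by
    apply le_normalizer_of_forall_conj_le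
    intro s hs
    rw [hN, Subgroup.map_iSup]
    apply iSup_le
    intro t
    rw [← sconj_mul]
    exact le_iSup (fun t : M => L.map (MulAut.conj (t : G)).toMonoidHom) (⟨s, hs⟩ * t)
  have hNne : N ≠ ⊥ := fun h => hne (eq_bot_iff.2 (h ▸ hLN))
  have hNM' := hM.2 N hNM hNn hNne
  have hAN : A ≤ normalizer (N : Set G) := by
    refine le_trans ?_ (iInf_normalizer_le_normalizer_iSup _)
    apply le_iInf
    intro m
    apply hA.le_normalizer
    have := (isSubnormal_iff_sn.1 hL).conj (m : G)
    rwa [← MonoidHom.range_eq_map, MonoidHom.range_eq_top.2 (MulAut.conj (m : G)).surjective] at this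
  rw [hNM'] at hAN
  exact hM.not_normal_le A hA.normalIn.normal hA.ne_bot hAN

theorem IsPrim.inf_fitting_eq_bot [Finite G] {M : Subgroup G} (hM : IsPrim M) :
    M ⊓ Cfsg.fittingSubgroup G = ⊥ := by
  apply hM.subnormal_eq_bot _ _ inf_le_left
  have h1 : Group.IsNilpotent (Cfsg.fittingSubgroup G) :=
    Cfsg.Agent.Lib.Helper22.fittingSubgroup_isNilpotent
  have h2 := Cfsg.Agent.Lib.Helper22.isSubnormal_of_isNilpotent
    ((M ⊓ Cfsg.fittingSubgroup G).subgroupOf (Cfsg.fittingSubgroup G))
  exact IsSubnormal.trans inf_le_right h2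
    (Cfsg.Agent.Lib.Helper22.fittingSubgroup_normal (G := G)).isSubnormal

end Cfsg.Agent.H20
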