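import Mathlib
import Cfsg.Agent.S3734
import Cfsg.Agent.S0023
import Cfsg.Agent.S0024
import Cfsg.Agent.S0025
import Cfsg.Agent.H17.CD
import Cfsg.Agent.H1.Coprime
import Cfsg.Agent.H9.FStar2
import Cfsg.Agent.H20.CMax2

set_option autoImplicit false

/-! Wielandt's order formula for a group `E ≅ C_p × C_p` acting coprimely (helper20). -/

namespace Cfsg.Agent.H20.WOrd

open Subgroup
open scoped Pointwise

variable {H : Type*} [Group H] [Finite H]

/-- nonidentity elements of a subgroup as a finset -/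
noncomputable def nz (E : Subgroup H) : Finset H := (Set.toFinite ((E : Set H) \ {1})).toFinset

theorem mem_nz {E : Subgroup H} {a : H} : a ∈ nz E ↔ a ∈ E ∧ a ≠ 1 := by
  simp [nz]

theorem card_nz (E : Subgroup H) : (nz E).card = Nat.card E - 1 := by
  unfold nz
  rw [← Set.ncard_eq_toFinset_card, Set.ncard_sdiff_singleton_of_mem (one_mem E)]
  rfl

/-- the order formula -/
def Formula (p : ℕ) (E K : Subgroup H) : Prop :=
  Nat.card K ^ (p - 1) * Nat.card ↥(K ⊓ centralizer (E : Set H)) ^ (p * (p - 1))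
    = ∏ a ∈ nz E, Nat.card ↥(K ⊓ centralizer ({a} : Set H))

theorem normalizer_inf_centralizer {E K : Subgroup H} (hEc : ∀ x ∈ E, ∀ y ∈ E, x * y = y * x)
    (hEK : E ≤ normalizer (K : Set H)) {S : Set H} (hS : S ⊆ E) :
    E ≤ normalizer ((K ⊓ centralizer S : Subgroup H) : Set H) := by
  rw [le_normalizer_iff] at hEK ⊢
  intro e he x hx
  refine mem_inf.2 ⟨hEK e he x hx.1, ?_⟩
  rw [mem_centralizer_iff]
  intro s hs
  have h1 : s * x = x * s := (mem_centralizer_iff.1 hx.2) s hs
  have h2 : s * e = e * s := hEc s (hS hs) e he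
  have h3 : s * e⁻¹ = e⁻¹ * s := (Commute.inv_right (show Commute s e from h2)).eq
  calc s * (e * x * e⁻¹) = (s * e) * x * e⁻¹ := by group
    _ = e * (s * x) * e⁻¹ := by rw [h2]; group
    _ = e * x * (s * e⁻¹) := by rw [h1]; group
    _ = e * x * e⁻¹ * s := by rw [h3]; group

theorem card_of_trivial {A0 K M : Subgroup H} (S : Set H) (hS : S ⊆ A0)
    (hcop : (Nat.card A0).Coprime (Nat.card K)) (hsolv : Group.IsSolvable A0)
    (hMK : M ≤ K) (hKM : K ≤ normalizer (M : Set H)) (hAM : A0 ≤ normalizer (M : Set H))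
    (htriv : ∀ a ∈ A0, ∀ k ∈ K, a * k * a⁻¹ * k⁻¹ ∈ M) :
    Nat.card K * Nat.card ↥(M ⊓ centralizer S) = Nat.card ↥(K ⊓ centralizer S) * Nat.card M := by
  have hset : ((K ⊓ centralizer S : Subgroup H) : Set H) * (M : Set H) = (K : Set H) := by
    apply Set.Subset.antisymm
    · rintro _ ⟨c, hc, m, hm, rfl⟩
      exact mul_mem hc.1 (hMK hm)
    · intro k hk
      obtain ⟨c, hc, hcm⟩ := Cfsg.H1.coprime_fixed_quotient A0 K hcop (Or.inl hsolv) M hMK hKM hAM
        k hk (fun a ha => htriv a ha k hk)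
      exact ⟨c, ⟨hc.1, centralizer_le hS hc.2⟩, (k⁻¹ * c)⁻¹, inv_mem hcm, by group⟩
  have h := Cfsg.Agent.H17.card_mul_set (K ⊓ centralizer S) M
  rw [hset] at h
  have e : (K ⊓ centralizer S) ⊓ M = M ⊓ centralizer S := by
    ext x; constructor
    · rintro ⟨⟨_, h2⟩, h3⟩; exact ⟨h3, h2⟩
    · rintro ⟨h3, h2⟩; exact ⟨⟨hMK h3, h2⟩, h3⟩
  rw [e] at h
  exact h

theorem arith (n : ℕ) (hn : 1 ≤ n) : n ^ 2 - 1 = (n - 1) + n * (n - 1) := by
  obtain ⟨m, rfl⟩ : ∃ m, n = m + 1 := ⟨n - 1, by omega⟩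
  simp only [Nat.add_sub_cancel]
  have : (m + 1) ^ 2 = (m + (m + 1) * m) + 1 := by ring
  omega

theorem step (p : ℕ) [hp : Fact p.Prime] {E K M : Subgroup H}
    (hEc : ∀ x ∈ E, ∀ y ∈ E, x * y = y * x) (hEp : ∀ x ∈ E, x ^ p = 1)
    (hE2 : Nat.card E = p ^ 2)
    (hEK : E ≤ normalizer (K : Set H)) (hEM : E ≤ normalizer (M : Set H))
    (hcop : (Nat.card E).Coprime (Nat.card K))
    (hMK : M ≤ K) (hne : M ≠ K) (hKM : K ≤ normalizer (M : Set H))
    (hmax : ∀ L : Subgroup H, M ≤ L → L ≤ K → E ≤ normalizer (L : Set H) → L = M ∨ L = K)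
    (hM : Formula p E M) : Formula p E K := by
  classical
  have hEK' := le_normalizer_iff.1 hEK
  have hEM' := le_normalizer_iff.1 hEM
  have hKM' := le_normalizer_iff.1 hKM
  haveI hEcomm : IsMulCommutative E := ⟨⟨fun x y => Subtype.ext (hEc x x.2 y y.2)⟩⟩
  have hEsolv : Group.IsSolvable E := Cfsg.Agent.Lib.Helper13.isSolvable_of_isMulCommutative E
  have hpp : p < p ^ 2 := by nlinarith [hp.out.two_le]
  let T : Subgroup H :=
    { carrier := {a | a ∈ E ∧ ∀ k ∈ K, a * k * a⁻¹ * k⁻¹ ∈ M}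
      one_mem' := ⟨one_mem _, fun k _ => by simp⟩
      mul_mem' := by
        rintro a b ⟨ha, ha'⟩ ⟨hb, hb'⟩
        refine ⟨mul_mem ha hb, fun k hk => ?_⟩
        have h1 := hEM' a ha _ (hb' k hk)
        have h2 := mul_mem h1 (ha' k hk)
        have e : a * (b * k * b⁻¹ * k⁻¹) * a⁻¹ * (a * k * a⁻¹ * k⁻¹)
            = a * b * k * (a * b)⁻¹ * k⁻¹ := by group
        rwa [e] at h2
      inv_mem' := by
        rintro a ⟨ha, ha'⟩
        refine ⟨inv_mem ha, fun k hk => ?_⟩
        have h1 := hEM' a⁻¹ (inv_mem ha) _ (inv_mem (ha' k hk))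
        have e : a⁻¹ * (a * k * a⁻¹ * k⁻¹)⁻¹ * a⁻¹⁻¹ = a⁻¹ * k * a⁻¹⁻¹ * k⁻¹ := by group
        rwa [e] at h1 }
  have hTE : T ≤ E := fun a ha => ha.1
  have hA : ∀ a ∈ T, Nat.card K * Nat.card ↥(M ⊓ centralizer ({a} : Set H))
      = Nat.card ↥(K ⊓ centralizer ({a} : Set H)) * Nat.card M := by
    intro a ha
    have hz : zpowers a ≤ T := zpowers_le.2 ha
    exact card_of_trivial ({a} : Set H) (by simp)
      (Nat.Coprime.coprime_dvd_left (card_dvd_of_le (hz.trans hTE)) hcop)
      (Cfsg.Agent.Lib.Helper13.isSolvable_of_isMulCommutative _) hMK hKM ((hz.trans hTE).trans hEM)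
      (fun a' ha' k hk => (hz ha').2 k hk)
  have hB : ∀ a ∈ E, a ∉ T → K ⊓ centralizer ({a} : Set H) ≤ M := by
    intro a ha haT
    have hCn : E ≤ normalizer ((K ⊓ centralizer ({a} : Set H) : Subgroup H) : Set H) :=
      normalizer_inf_centralizer hEc hEK (by simpa using ha)
    have hCn' := le_normalizer_iff.1 hCn
    have hCM : K ⊓ centralizer ({a} : Set H) ≤ normalizer (M : Set H) := inf_le_left.trans hKM
    have hL : E ≤ normalizer ((M ⊔ (K ⊓ centralizer ({a} : Set H)) : Subgroup H) : Set H) := by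
      rw [le_normalizer_iff]
      intro e he x hx
      obtain ⟨m, hm, c, hc, rfl⟩ := (Cfsg.H9.mem_sup_of_le_normalizer hCM).1 hx
      have e1 : e * (m * c) * e⁻¹ = (e * m * e⁻¹) * (e * c * e⁻¹) := by group
      rw [e1]
      exact mul_mem (le_sup_left (b := K ⊓ centralizer ({a} : Set H)) (hEM' e he m hm))
        (le_sup_right (a := M) (hCn' e he c hc))
    rcases hmax _ le_sup_left (sup_le hMK inf_le_left) hL with h | h
    · rw [← h]; exact le_sup_right
    · exfalso; apply haT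
      refine ⟨ha, fun k hk => ?_⟩
      rw [← h] at hk
      obtain ⟨m, hm, c, hc, rfl⟩ := (Cfsg.H9.mem_sup_of_le_normalizer hCM).1 hk
      have hac : a * c = c * a := mem_centralizer_iff.1 hc.2 a rfl
      have e : a * (m * c) * a⁻¹ * (m * c)⁻¹ = (a * m * a⁻¹) * m⁻¹ := by
        have h0 : a * c * a⁻¹ = c := by rw [hac]; group
        calc a * (m * c) * a⁻¹ * (m * c)⁻¹ = a * m * a⁻¹ * (a * c * a⁻¹) * c⁻¹ * m⁻¹ := by group
          _ = _ := by rw [h0]; group
      rw [e]
      exact mul_mem (hEM' a ha m hm) (inv_mem hm)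
  have hT : T ≠ ⊥ := by
    intro hT
    apply hne
    apply le_antisymm hMK
    have hgen := (Cfsg.Agent.S3734.result E K hEcomm hEK hcop).1
    rw [← hgen]
    refine iSup₂_le fun B hB0 => ?_
    obtain ⟨hBE, a, ha, hsup⟩ := hB0
    have hBne : B ≠ ⊥ := by
      intro hB0
      rw [hB0, bot_sup_eq] at hsup
      have h1 : Nat.card (zpowers a) = p ^ 2 := by rw [hsup, hE2]
      rw [Nat.card_zpowers] at h1
      have h2 : orderOf a ∣ p := orderOf_dvd_of_pow_eq_one (hEp a ha)
      have h3 := Nat.le_of_dvd hp.out.pos h2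
      omega
    obtain ⟨⟨b, hb⟩, hb1⟩ := (Subgroup.ne_bot_iff_exists_ne_one).1 hBne
    have hbT : (b : H) ∉ T := by
      rw [hT, mem_bot]
      intro h0
      exact hb1 (Subtype.ext h0)
    exact (inf_le_inf_left K (centralizer_le (by simpa using hb))).trans (hB b (hBE hb) hbT)
  obtain ⟨r, hr⟩ : Nat.card M ∣ Nat.card K := card_dvd_of_le hMK
  have hMpos : 0 < Nat.card M := Nat.card_pos
  have hA' : ∀ a ∈ T, Nat.card ↥(K ⊓ centralizer ({a} : Set H))
      = r * Nat.card ↥(M ⊓ centralizer ({a} : Set H)) := by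
    intro a ha
    have h := hA a ha
    rw [hr] at h
    apply Nat.eq_of_mul_eq_mul_right hMpos
    rw [← h]; ring
  have hB' : ∀ a ∈ E, a ∉ T → Nat.card ↥(K ⊓ centralizer ({a} : Set H))
      = Nat.card ↥(M ⊓ centralizer ({a} : Set H)) := by
    intro a ha haT
    have h0 : K ⊓ centralizer ({a} : Set H) = M ⊓ centralizer ({a} : Set H) :=
      le_antisymm (le_inf (hB a ha haT) inf_le_right) (inf_le_inf_right _ hMK)
    rw [h0]
  have hprod : ∏ a ∈ nz E, Nat.card ↥(K ⊓ centralizer ({a} : Set H))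
      = r ^ (Nat.card T - 1) * ∏ a ∈ nz E, Nat.card ↥(M ⊓ centralizer ({a} : Set H)) := by
    have h1 : ∀ a ∈ nz E, Nat.card ↥(K ⊓ centralizer ({a} : Set H))
        = (if a ∈ T then r else 1) * Nat.card ↥(M ⊓ centralizer ({a} : Set H)) := by
      intro a ha
      by_cases haT : a ∈ T
      · rw [if_pos haT, hA' a haT]
      · rw [if_neg haT, one_mul, hB' a (mem_nz.1 ha).1 haT]
    rw [Finset.prod_congr rfl h1, Finset.prod_mul_distrib]
    congr 1
    rw [← Finset.prod_filter, Finset.prod_const]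
    congr 1
    rw [← card_nz]
    congr 1
    ext a
    simp only [Finset.mem_filter, mem_nz]
    constructor
    · rintro ⟨⟨_, h1⟩, h2⟩; exact ⟨h2, h1⟩
    · rintro ⟨h2, h1⟩; exact ⟨⟨hTE h2, h1⟩, h2⟩
  have hTcard : Nat.card T = p ∨ Nat.card T = p ^ 2 := by
    have hd : Nat.card T ∣ p ^ 2 := hE2 ▸ card_dvd_of_le hTE
    obtain ⟨j, hj, hj'⟩ := (Nat.dvd_prime_pow hp.out).1 hd
    interval_cases j
    · exfalso; apply hT
      rw [pow_zero] at hj'
      exact (Subgroup.card_eq_one).1 hj'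
    · left; simpa using hj'
    · right; exact hj'
  unfold Formula at hM ⊢
  rw [hprod, ← hM, hr]
  rcases hTcard with h | h
  · obtain ⟨a, haE, haT⟩ : ∃ a ∈ E, a ∉ T := by
      by_contra hcon
      push Not at hcon
      have h0 : T = E := le_antisymm hTE hcon
      rw [h0, hE2] at h
      omega
    have hCE : K ⊓ centralizer (E : Set H) = M ⊓ centralizer (E : Set H) :=
      le_antisymm (le_inf ((inf_le_inf_left K (centralizer_le (by simpa using haE))).trans
        (hB a haE haT)) inf_le_right) (inf_le_inf_right _ hMK)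
    rw [hCE, h, mul_pow]; ring
  · have hTE' : T = E := eq_of_le_of_card_ge hTE (by rw [h, hE2])
    have h5 := card_of_trivial (E : Set H) le_rfl hcop hEsolv hMK hKM hEM
      (fun a ha k hk => ((hTE' ▸ ha : a ∈ T)).2 k hk)
    have h6 : Nat.card ↥(K ⊓ centralizer (E : Set H))
        = r * Nat.card ↥(M ⊓ centralizer (E : Set H)) := by
      rw [hr] at h5
      apply Nat.eq_of_mul_eq_mul_right hMpos
      rw [← h5]; ring
    rw [h6, h, arith p hp.out.one_le]
    ring

theorem formula_pgroup (p : ℕ) [hp : Fact p.Prime] (q : ℕ) [hq : Fact q.Prime] {E : Subgroup H}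
    (hEc : ∀ x ∈ E, ∀ y ∈ E, x * y = y * x) (hEp : ∀ x ∈ E, x ^ p = 1)
    (hE2 : Nat.card E = p ^ 2) :
    ∀ (n : ℕ) (K : Subgroup H), Nat.card K = n → IsPGroup q K → E ≤ normalizer (K : Set H) →
      (Nat.card E).Coprime (Nat.card K) → Formula p E K := by
  intro n
  induction n using Nat.strong_induction_on with
  | _ n ih =>
    intro K hKn hKq hEK hcop
    by_cases hK : K = ⊥
    · subst hK
      unfold Formula
      simp
    · let 𝒮 : Set (Subgroup H) := {L | L ≤ K ∧ L ≠ K ∧ E ≤ normalizer (L : Set H)}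
      have hne : 𝒮.Nonempty := ⟨⊥, bot_le, fun h => hK h.symm, by
        rw [le_normalizer_iff]
        intro e _ x hx
        rw [mem_bot] at hx ⊢
        subst hx
        simp⟩
      obtain ⟨M, hM𝒮, hMmax⟩ := Set.exists_max_image 𝒮 (fun L => Nat.card L) (Set.toFinite _) hne
      obtain ⟨hMK, hMne, hEM⟩ := hM𝒮
      have hmax : ∀ L : Subgroup H, M ≤ L → L ≤ K → E ≤ normalizer (L : Set H) →
          L = M ∨ L = K := by
        intro L hML hLK hEL
        by_cases hLK' : L = K
        · right; exact hLK'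
        · left
          exact (eq_of_le_of_card_ge hML (hMmax L ⟨hLK, hLK', hEL⟩)).symm
      haveI : Group.IsNilpotent K := hKq.isNilpotent
      obtain ⟨w, hwK, hwM, hwN⟩ := Cfsg.Agent.H20.CMax.exists_normalizer_of_nilpotent hMK hMne
      have hKM : K ≤ normalizer (M : Set H) := by
        have hEK' := le_normalizer_iff.1 hEK
        have hN : E ≤ normalizer ((normalizer (M : Set H) ⊓ K : Subgroup H) : Set H) := by
          rw [le_normalizer_iff]
          intro e he x hx
          exact mem_inf.2 ⟨mul_mem (mul_mem (hEM he) hx.1) (inv_mem (hEM he)), hEK' e he x hx.2⟩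
        rcases hmax _ (le_inf le_normalizer hMK) inf_le_right hN with h | h
        · exfalso; apply hwM
          rw [← h]; exact ⟨hwN, hwK⟩
        · rw [← h]; exact inf_le_left
      have hlt : Nat.card M < n := by
        rw [← hKn]
        rcases lt_or_eq_of_le (card_le_of_le hMK) with h | h
        · exact h
        · exact absurd (eq_of_le_of_card_ge hMK h.ge) hMne
      exact step p hEc hEp hE2 hEK hEM hcop hMK hMne hKM hmax
        (ih _ hlt M rfl (hKq.to_le hMK) hEM (Cfsg.H1.coprime_of_le_right hMK hcop))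

theorem sylow_part {E K : Subgroup H} (hEc : ∀ x ∈ E, ∀ y ∈ E, x * y = y * x)
    (hEK : E ≤ normalizer (K : Set H)) (hcop : (Nat.card E).Coprime (Nat.card K))
    (q : ℕ) [hq : Fact q.Prime] :
    ∃ Q : Subgroup H, Q ≤ K ∧ IsPGroup q Q ∧ E ≤ normalizer (Q : Set H) ∧
      Nat.card Q = q ^ (Nat.card K).factorization q ∧
      ∀ S : Set H, S ⊆ E →
        Nat.card ↥(Q ⊓ centralizer S) = q ^ (Nat.card ↥(K ⊓ centralizer S)).factorization q := by
  haveI hEcomm : IsMulCommutative E := ⟨⟨fun x y => Subtype.ext (hEc x x.2 y y.2)⟩⟩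
  have hEsolv : Group.IsSolvable E := Cfsg.Agent.Lib.Helper13.isSolvable_of_isMulCommutative E
  obtain ⟨P, hP⟩ := Cfsg.Agent.S0023.result E K hEK hcop (Or.inl hEsolv) q
  have hQq : IsPGroup q ↥((P : Subgroup K).map K.subtype) := P.2.map _
  refine ⟨(P : Subgroup K).map K.subtype, map_subtype_le _, hQq, hP, ?_, ?_⟩
  · rw [card_map_of_injective K.subtype_injective]
    exact P.card_eq_multiplicity
  · intro S hS
    have hEC := normalizer_inf_centralizer hEc hEK hS
    have hcopC := Cfsg.H1.coprime_of_le_right (inf_le_left : K ⊓ centralizer S ≤ K) hcop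
    obtain ⟨T0, hT0⟩ := Cfsg.Agent.S0023.result E (K ⊓ centralizer S) hEC hcopC (Or.inl hEsolv) q
    have hUC : (T0 : Subgroup ↥(K ⊓ centralizer S)).map (K ⊓ centralizer S).subtype
        ≤ K ⊓ centralizer S := map_subtype_le _
    have hUq : IsPGroup q ↥((T0 : Subgroup ↥(K ⊓ centralizer S)).map (K ⊓ centralizer S).subtype) :=
      T0.2.map _
    have hUcard : Nat.card ↥((T0 : Subgroup ↥(K ⊓ centralizer S)).map (K ⊓ centralizer S).subtype)
        = q ^ (Nat.card ↥(K ⊓ centralizer S)).factorization q := by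
      rw [card_map_of_injective (K ⊓ centralizer S).subtype_injective]
      exact T0.card_eq_multiplicity
    obtain ⟨P', hUP', hP'⟩ := Cfsg.Agent.S0025.result E K hEK hcop (Or.inl hEsolv) q _
      (hUC.trans inf_le_left) hUq hT0
    obtain ⟨c, hc, hcP⟩ := Cfsg.Agent.S0024.result E K hEK hcop (Or.inl hEsolv) q P' P hP' hP
    apply le_antisymm
    · have hRq : IsPGroup q ↥((P : Subgroup K).map K.subtype ⊓ centralizer S) :=
        hQq.to_le inf_le_left
      obtain ⟨j, hj⟩ := IsPGroup.iff_card.1 hRq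
      have hd : q ^ j ∣ Nat.card ↥(K ⊓ centralizer S) := by
        rw [← hj]
        exact card_dvd_of_le (inf_le_inf_right _ (map_subtype_le _))
      rw [hj]
      exact Nat.pow_le_pow_right hq.out.pos
        ((Nat.Prime.pow_dvd_iff_le_factorization hq.out Nat.card_pos.ne').1 hd)
    · rw [← hUcard, ← card_map_of_injective (f := (MulAut.conj (c : H)).toMonoidHom)
        (MulAut.conj (c : H)).injective]
      apply card_le_of_le
      rintro _ ⟨u, hu, rfl⟩
      obtain ⟨u', hu', hu'e⟩ := hUP' hu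
      have h1 : (MulAut.conj c • u' : K) ∈ ((MulAut.conj c • P' : Sylow q K) : Subgroup K) :=
        Subgroup.smul_mem_pointwise_smul _ _ _ hu'
      rw [hcP] at h1
      refine mem_inf.2 ⟨⟨_, h1, ?_⟩, ?_⟩
      · rw [← hu'e]
        rfl
      · have hcS : (c : H) ∈ centralizer S := centralizer_le hS hc
        exact mul_mem (mul_mem hcS (hUC hu).2) (inv_mem hcS)

theorem formula (p : ℕ) [hp : Fact p.Prime] {E K : Subgroup H}
    (hEc : ∀ x ∈ E, ∀ y ∈ E, x * y = y * x) (hEp : ∀ x ∈ E, x ^ p = 1)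
    (hE2 : Nat.card E = p ^ 2) (hEK : E ≤ normalizer (K : Set H))
    (hcop : (Nat.card E).Coprime (Nat.card K)) : Formula p E K := by
  unfold Formula
  apply Nat.eq_of_factorization_eq
  · exact mul_ne_zero (pow_ne_zero _ Nat.card_pos.ne') (pow_ne_zero _ Nat.card_pos.ne')
  · exact Finset.prod_ne_zero_iff.2 (fun a _ => Nat.card_pos.ne')
  · intro q
    by_cases hq : q.Prime
    · haveI := Fact.mk hq
      obtain ⟨Q, hQK, hQ, hEQ, hQc, hQS⟩ := sylow_part hEc hEK hcop q
      have hF := formula_pgroup p q hEc hEp hE2 _ Q rfl hQ hEQ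
        (Cfsg.H1.coprime_of_le_right hQK hcop)
      unfold Formula at hF
      rw [hQc, hQS E le_rfl, Finset.prod_congr rfl
        (fun a ha => hQS {a} (by simpa using (mem_nz.1 ha).1)), Finset.prod_pow_eq_pow_sum,
        ← pow_mul, ← pow_mul, ← pow_add] at hF
      have hexp := Nat.pow_right_injective hq.two_le hF
      rw [Nat.factorization_mul (pow_ne_zero _ Nat.card_pos.ne') (pow_ne_zero _ Nat.card_pos.ne'),
        Nat.factorization_pow, Nat.factorization_pow,
        Nat.factorization_prod (fun a _ => Nat.card_pos.ne')]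
      simp only [Finsupp.coe_add, Finsupp.coe_smul, Pi.add_apply, Pi.smul_apply, smul_eq_mul,
        Finsupp.finsetSum_apply]
      rw [← hexp]; ring
    · rw [Nat.factorization_eq_zero_of_not_prime _ hq, Nat.factorization_eq_zero_of_not_prime _ hq]

end Cfsg.Agent.H20.WOrd
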